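-- OTS (S5972) package [FLAG]: port of Helper40.SpIso.flag to a nondegenerate quadratic form.
import Mathlib
import Cfsg.Agent.Lib.Helper40.OTS.Defs
import Cfsg.Agent.Lib.Helper40.SpIso

set_option autoImplicit false
set_option linter.unusedSectionVars false

namespace Cfsg.Agent.Lib.Helper37.OTS

open Cfsg Polynomial Module Matrix
open Cfsg.Agent.Lib.Helper40 Cfsg.Agent.Lib.Helper40.OTS
open Cfsg.Agent.Lib.Helper40.PrimeOrderGL Cfsg.Agent.Lib.Helper40.DualPoly
  Cfsg.Agent.Lib.Helper40.SpExist Cfsg.Agent.Lib.Helper40.SympWall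
  Cfsg.Agent.Lib.Helper40.GUPrimeOrder Cfsg.Agent.Lib.Helper40.SpIso

universe u

section flagQ

variable {F : Type u} [Field F] [Fintype F] {ι : Type} [Fintype ι] [DecidableEq ι]

theorem polar_toLin (Q : QuadraticForm F (ι → F)) (x : Matrix ι ι F)
    (hx : ∀ v : ι → F, Q (Matrix.mulVec x v) = Q v) (u v : ι → F) :
    QuadraticMap.polarBilin Q (Matrix.toLin' x u) (Matrix.toLin' x v) =
      QuadraticMap.polarBilin Q u v := by
  rw [QuadraticMap.polarBilin_apply_apply, QuadraticMap.polarBilin_apply_apply]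
  unfold QuadraticMap.polar
  rw [← map_add, Matrix.toLin'_apply, Matrix.toLin'_apply, Matrix.toLin'_apply, hx, hx, hx]

theorem toLin_inj_of_pow (x : Matrix ι ι F) {r : ℕ} (hr : r ≠ 0) (hxr : x ^ r = 1) :
    Function.Injective (Matrix.toLin' x) := by
  have h1 : x ^ (r - 1) * x = 1 := by
    rw [← pow_succ, Nat.sub_add_cancel (Nat.one_le_iff_ne_zero.2 hr), hxr]
  intro u v h
  rw [Matrix.toLin'_apply, Matrix.toLin'_apply] at h
  have h2 := congrArg (Matrix.mulVec (x ^ (r - 1))) h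
  rw [Matrix.mulVec_mulVec, Matrix.mulVec_mulVec, h1, Matrix.one_mulVec, Matrix.one_mulVec] at h2
  exact h2

theorem perpQ_invariant (Q : QuadraticForm F (ι → F)) (x : Matrix ι ι F)
    (hx : ∀ v : ι → F, Q (Matrix.mulVec x v) = Q v) {r : ℕ} (hr : r ≠ 0) (hxr : x ^ r = 1)
    (U : Submodule F (ι → F)) (hU : U.map (Matrix.toLin' x) ≤ U) :
    (LinearMap.BilinForm.orthogonal (QuadraticMap.polarBilin Q) U).map (Matrix.toLin' x) ≤
      LinearMap.BilinForm.orthogonal (QuadraticMap.polarBilin Q) U := by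
  have hU' := map_eq_of_le (Matrix.toLin' x) (toLin_inj_of_pow x hr hxr) U hU
  rintro _ ⟨v, hv, rfl⟩
  rw [LinearMap.BilinForm.mem_orthogonal_iff]
  intro u hu
  rw [← hU'] at hu
  obtain ⟨u', hu', rfl⟩ := hu
  rw [polar_toLin Q x hx]
  exact (LinearMap.BilinForm.mem_orthogonal_iff.1 hv) u' hu'

/-- The necessary condition for an invariant totally singular subspace. -/
theorem flagQ (Q : QuadraticForm F (ι → F)) (hnd : (QuadraticMap.polarBilin Q).Nondegenerate)
    {S : Finset F[X]} {r i : ℕ} (hS : Factors S r i) (hrF : (r : F) ≠ 0)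
    (dg : S → S) (hdg : ∀ π : S, (dg π : F[X]) = dual (RingHom.id F) π.1)
    (hdd : ∀ π, dg (dg π) = π)
    (x : Matrix ι ι F)
    (hx : ∀ v : ι → F, Q (Matrix.mulVec x v) = Q v) (hxr : x ^ r = 1)
    (a : S → ℕ) (k₀ : ℕ) (hχ : x.charpoly = chi S a k₀)
    (W : Submodule F (ι → F)) (m : ℕ) (hWm : finrank F W = m)
    (hWts : ∀ w ∈ W, Q w = 0) (hWinv : W.map (Matrix.toLin' x) ≤ W) :
    ∃ a₁ : S → ℕ, i * ∑ π, a₁ π ≤ m ∧ (∀ π, a₁ π + a₁ (dg π) ≤ a π) ∧
      2 * (m - i * ∑ π, a₁ π) ≤ k₀ := by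
  classical
  have hr0 : r ≠ 0 := by
    rintro rfl
    exact hrF Nat.cast_zero
  obtain ⟨B, hB⟩ : ∃ B : LinearMap.BilinForm F (ι → F), B = QuadraticMap.polarBilin Q :=
    ⟨_, rfl⟩
  have hBapp : ∀ u v, B u v = Q (u + v) - Q u - Q v := by
    intro u v
    rw [hB, QuadraticMap.polarBilin_apply_apply]
    rfl
  have hWti : ∀ u ∈ W, ∀ v ∈ W, B u v = 0 := by
    intro u hu v hv
    rw [hBapp, hWts u hu, hWts v hv, hWts _ (W.add_mem hu hv)]
    ring
  obtain ⟨f, hf⟩ : ∃ f : Module.End F (ι → F), f = Matrix.toLin' x := ⟨_, rfl⟩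
  have hss : f.IsSemisimple := by
    rw [hf]
    exact isSemisimple_of_pow_eq_one' x r hrF hxr
  have hfr : f ^ r = 1 := by
    rw [hf, SpImprim.toLin_pow, hxr, Matrix.toLin'_one]
    rfl
  have hWi : W ∈ f.invtSubmodule := by
    rw [Module.End.mem_invtSubmodule_iff_map_le, hf]
    exact hWinv
  have hWP : W ≤ B.orthogonal W := fun w hw =>
    LinearMap.BilinForm.mem_orthogonal_iff.2 (fun u hu => hWti u hu w hw)
  have hPi : B.orthogonal W ∈ f.invtSubmodule := by
    rw [Module.End.mem_invtSubmodule_iff_map_le, hf, hB]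
    exact perpQ_invariant Q x hx hr0 hxr W hWinv
  obtain ⟨D, hDi, hWD⟩ := (Module.End.isSemisimple_iff.1 hss) W hWi
  obtain ⟨W₂, hW₂i, hPW₂⟩ := (Module.End.isSemisimple_iff.1 hss) (B.orthogonal W) hPi
  have hCi : B.orthogonal W ⊓ D ∈ f.invtSubmodule := Module.End.invtSubmodule.inf_mem hPi hDi
  have hdisj : Disjoint W (B.orthogonal W ⊓ D) := hWD.disjoint.mono_right inf_le_right
  have hsup : W ⊔ (B.orthogonal W ⊓ D) = B.orthogonal W := by
    rw [inf_comm, ← sup_inf_assoc_of_le D hWP, hWD.sup_eq_top, top_inf_eq]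
  have h1 := charpoly_eq_mul_of_isCompl f (B.orthogonal W) W₂ hPi hW₂i hPW₂
  have h2 := charpoly_restrict_mul f (B.orthogonal W) W (B.orthogonal W ⊓ D) hPi hWi hCi hdisj hsup
  have hW₂dim : finrank F W₂ = m := by
    have h3 := Submodule.finrank_add_eq_of_isCompl hPW₂
    have h4 : finrank F (B.orthogonal W) = finrank F (ι → F) - finrank F W := by
      rw [hB]
      exact LinearMap.BilinForm.finrank_orthogonal hnd W
    have h6 := Submodule.finrank_le W
    omega
  obtain ⟨b, -⟩ : ∃ b : Module.Basis (Fin m) F W, True :=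
    ⟨Module.finBasisOfFinrankEq F W hWm, trivial⟩
  obtain ⟨Φ, hΦ⟩ : ∃ Φ : W₂ →ₗ[F] (Fin m → F), ∀ (w : W₂) (j : Fin m),
      Φ w j = B (b j : ι → F) (w : ι → F) := by
    refine ⟨LinearMap.pi (fun j => (B (b j : ι → F)).comp
      W₂.subtype), fun w j => ?_⟩
    rw [LinearMap.pi_apply, LinearMap.comp_apply, Submodule.subtype_apply]
  have hΦinj : Function.Injective Φ := by
    rw [← LinearMap.ker_eq_bot, LinearMap.ker_eq_bot']
    intro w hw
    have h3 : (w : ι → F) ∈ B.orthogonal W := by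
      rw [LinearMap.BilinForm.mem_orthogonal_iff]
      intro u hu
      have h4 : (⟨u, hu⟩ : W) ∈ Submodule.span F (Set.range b) := by
        rw [b.span_eq]
        exact Submodule.mem_top
      have h5 : ∀ y : W, y ∈ Submodule.span F (Set.range b) →
          B (y : ι → F) (w : ι → F) = 0 := by
        intro y hy
        induction hy using Submodule.span_induction with
        | mem y hy =>
          obtain ⟨j, rfl⟩ := hy
          rw [← hΦ, hw]
          rfl
        | zero => simp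
        | add y z _ _ hy hz =>
          rw [Submodule.coe_add, map_add, LinearMap.add_apply, hy, hz, add_zero]
        | smul c y _ hy =>
          rw [Submodule.coe_smul, map_smul, LinearMap.smul_apply, hy, smul_zero]
      exact h5 _ h4
    have h5 : (w : ι → F) ∈ B.orthogonal W ⊓ W₂ := ⟨h3, w.2⟩
    rw [hPW₂.inf_eq_bot] at h5
    exact Subtype.ext ((Submodule.mem_bot F).1 h5)
  obtain ⟨Φe, hΦe⟩ : ∃ Φe : W₂ ≃ₗ[F] (Fin m → F), ∀ w, Φe w = Φ w :=
    ⟨LinearMap.linearEquivOfInjective Φ hΦinj (by rw [hW₂dim, Module.finrank_fin_fun]),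
      fun w => rfl⟩
  obtain ⟨b₂, hb₂⟩ : ∃ b₂ : Module.Basis (Fin m) F W₂, b₂ = Module.Basis.ofEquivFun Φe :=
    ⟨_, rfl⟩
  have hdual : ∀ j l, B (b j : ι → F) (b₂ l : ι → F) =
      if j = l then 1 else 0 := by
    intro j l
    rw [← hΦ, ← hΦe, hb₂, Module.Basis.coe_ofEquivFun, LinearEquiv.apply_symm_apply,
      Pi.single_apply]
  obtain ⟨g, hg⟩ : ∃ g : Module.End F W, g = f.restrict (p := W) (q := W) hWi := ⟨_, rfl⟩
  obtain ⟨g₂, hg₂⟩ : ∃ g₂ : Module.End F W₂, g₂ = f.restrict (p := W₂) (q := W₂) hW₂i :=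
    ⟨_, rfl⟩
  obtain ⟨M, hM⟩ : ∃ M : Matrix (Fin m) (Fin m) F, M = LinearMap.toMatrix b b g := ⟨_, rfl⟩
  obtain ⟨M₂, hM₂⟩ : ∃ M₂ : Matrix (Fin m) (Fin m) F, M₂ = LinearMap.toMatrix b₂ b₂ g₂ :=
    ⟨_, rfl⟩
  have hgb : ∀ j, ((g (b j) : W) : ι → F) =
      ∑ a', M a' j • (b a' : ι → F) := by
    intro j
    have h3 : g (b j) = ∑ a', M a' j • b a' := by
      conv_lhs => rw [← Matrix.toLin_toMatrix b b g]
      rw [hM]
      exact Matrix.toLin_self b b _ j
    rw [h3, Submodule.coe_sum]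
    rfl
  have hgb₂ : ∀ l, ((g₂ (b₂ l) : W₂) : ι → F) =
      ∑ c', M₂ c' l • (b₂ c' : ι → F) := by
    intro l
    have h3 : g₂ (b₂ l) = ∑ c', M₂ c' l • b₂ c' := by
      conv_lhs => rw [← Matrix.toLin_toMatrix b₂ b₂ g₂]
      rw [hM₂]
      exact Matrix.toLin_self b₂ b₂ _ l
    rw [h3, Submodule.coe_sum]
    rfl
  have hMM : Mᵀ * M₂ = 1 := by
    ext j l
    have h3 : B ((g (b j) : W) : ι → F)
        ((g₂ (b₂ l) : W₂) : ι → F) =
        B (b j : ι → F) (b₂ l : ι → F) := by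
      rw [hg, hg₂]
      show B (f (b j : ι → F)) (f (b₂ l : ι → F)) = _
      rw [hf, hB]
      exact polar_toLin Q x hx _ _
    rw [hgb, hgb₂, hdual] at h3
    simp only [map_sum, map_smul, LinearMap.sum_apply, LinearMap.smul_apply,
      hdual, smul_eq_mul] at h3
    rw [Matrix.mul_apply, Matrix.one_apply, ← h3]
    apply Finset.sum_congr rfl
    intro a' _
    rw [Matrix.transpose_apply]
    simp [mul_comm]
  have hMr : M ^ r = 1 := by
    rw [hM, LinearMap.toMatrix_pow]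
    have h3 : g ^ r = 1 := by
      apply LinearMap.ext
      intro w
      apply Subtype.ext
      rw [hg, Elusive.pow_restrict_apply, hfr]
      rfl
    rw [h3, LinearMap.toMatrix_one]
  obtain ⟨a₁, ha₁, hχ₁⟩ := charpoly_eq_chi hS M hMr
  have hχM : M.charpoly = (f.restrict (p := W) (q := W) hWi).charpoly := by
    rw [hM, LinearMap.charpoly_toMatrix, hg]
  have hχM₂ : M₂.charpoly = (f.restrict (p := W₂) (q := W₂) hW₂i).charpoly := by
    rw [hM₂, LinearMap.charpoly_toMatrix, hg₂]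
  have hχ₂ : M₂.charpoly = chi S (fun π => a₁ (dg π)) (m - i * ∑ π, a₁ π) := by
    have h3 := charpoly_inv_eq Mᵀ M₂ hMM
    rw [Matrix.charpoly_transpose, hχ₁] at h3
    rw [h3, ← dual_chi (RingHom.id F) dg hdd hdg]
    unfold dual
    rw [Polynomial.map_id, RingHom.id_apply]
  have hdvd : chi S a₁ (m - i * ∑ π, a₁ π) * chi S (fun π => a₁ (dg π)) (m - i * ∑ π, a₁ π) ∣
      chi S a k₀ := by
    have h4 : chi S a k₀ = chi S a₁ (m - i * ∑ π, a₁ π) *
        (f.restrict (p := B.orthogonal W ⊓ D) (q := B.orthogonal W ⊓ D) hCi).charpoly *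
        chi S (fun π => a₁ (dg π)) (m - i * ∑ π, a₁ π) := by
      rw [← hχ, ← Matrix.charpoly_toLin', ← hf, h1, h2, ← hχM, ← hχM₂, hχ₁, hχ₂]
    rw [h4]
    exact ⟨(f.restrict (p := B.orthogonal W ⊓ D) (q := B.orthogonal W ⊓ D) hCi).charpoly, by ring⟩
  have hle : ms S a₁ (m - i * ∑ π, a₁ π) + ms S (fun π => a₁ (dg π)) (m - i * ∑ π, a₁ π) ≤
      ms S a k₀ := by
    rw [← nf_chi hS, ← nf_chi hS, ← nf_chi hS,
      ← UniqueFactorizationMonoid.normalizedFactors_mul (monic_chi hS _ _).ne_zero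
        (monic_chi hS _ _).ne_zero]
    exact (UniqueFactorizationMonoid.dvd_iff_normalizedFactors_le_normalizedFactors
      (mul_ne_zero (monic_chi hS _ _).ne_zero (monic_chi hS _ _).ne_zero)
      (monic_chi hS _ _).ne_zero).1 hdvd
  refine ⟨a₁, ha₁, fun π => ?_, ?_⟩
  · have h3 := Multiset.count_le_of_le π.1 hle
    rw [Multiset.count_add, count_ms hS, count_ms hS, count_ms hS] at h3
    exact h3
  · have h3 := Multiset.count_le_of_le (X - C 1 : F[X]) hle
    rw [Multiset.count_add, count_ms_one hS, count_ms_one hS, count_ms_one hS] at h3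
    omega

end flagQ

/-- **[FLAG]** -/
theorem pkgFlag : PkgFlag.{u} := by
  intro F _ _ ι _ _ Q hnd S r i hS hrF dg hdg hdd x hx hxr a k₀ hχ W m hWm hWts hWinv
  exact flagQ Q hnd hS hrF dg hdg hdd x hx hxr a k₀ hχ W m hWm hWts hWinv

end Cfsg.Agent.Lib.Helper37.OTS
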