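-- OTS (S5972) package [INV2-NEC]: for q = 3 mod 4 an involution of Omega without invariant
-- totally singular d-space.
import Mathlib
import Cfsg.Agent.Lib.Helper40.OTS.Defs
import Cfsg.Agent.Lib.Helper14.Spinor
import Cfsg.Agent.Lib.Helper14.NegOne
import Cfsg.Agent.Lib.Helper14.Forms

set_option autoImplicit false
set_option linter.unusedSectionVars false

namespace Cfsg.Agent.Lib.Helper37.OTS

open Cfsg Matrix Module
open Cfsg.Agent.Lib.Helper14 Cfsg.Agent.Lib.Helper40.OTS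

universe u

section inv2nec

variable {F : Type u} [Field F] [Fintype F]

theorem sq_add_sq_eq_zero (h3 : Fintype.card F % 4 = 3) {a b : F} (h : a ^ 2 + b ^ 2 = 0) :
    a = 0 ∧ b = 0 := by
  have hns : ¬ IsSquare (-1 : F) := by
    rw [FiniteField.isSquare_neg_one_iff]
    exact fun h => h h3
  by_cases hb : b = 0
  · subst hb
    have h1 : a ^ 2 = 0 := by linear_combination h
    exact ⟨pow_eq_zero_iff (two_ne_zero) |>.1 h1, rfl⟩
  · exfalso
    apply hns
    refine ⟨a / b, ?_⟩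
    field_simp
    linear_combination -h

theorem two_ne_zero_of_card (h3 : Fintype.card F % 4 = 3) : (2 : F) ≠ 0 := by
  intro h
  have h1 : ringChar F = 2 := CharP.ringChar_of_prime_eq_zero Nat.prime_two h
  have h2 := FiniteField.even_card_of_char_two h1
  omega

variable (d : ℕ)

/-- the first anisotropic vector -/
def e0 (F : Type u) [Field F] (d : ℕ) : Unit ⊕ (Fin d ⊕ Fin d) → F := Pi.single (Sum.inl ()) 1

/-- the second anisotropic vector -/
def u1 (F : Type u) [Field F] (d : ℕ) (i0 : Fin d) : Unit ⊕ (Fin d ⊕ Fin d) → F :=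
  Pi.single (Sum.inr (Sum.inl i0)) 1 + Pi.single (Sum.inr (Sum.inr i0)) 1

theorem Q_comb (i0 : Fin d) (a b : F) :
    oddQF d F (a • e0 F d + b • u1 F d i0) = a ^ 2 + b ^ 2 := by
  rw [oddQF_coe]
  simp [Cfsg.quadFormOdd, e0, u1, Pi.single_apply]
  ring

theorem Q_e0 : oddQF d F (e0 F d) = 1 := by
  have h := Q_comb (F := F) d
  rw [oddQF_coe]
  simp [Cfsg.quadFormOdd, e0]

theorem Q_u1 (i0 : Fin d) : oddQF d F (u1 F d i0) = 1 := by
  have h := Q_comb (F := F) d i0 0 1
  simpa using h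

theorem pol_e0 (v : Unit ⊕ (Fin d ⊕ Fin d) → F) :
    QuadraticMap.polar (oddQF d F) (e0 F d) v = 2 * v (Sum.inl ()) := by
  rw [oddQF_coe]
  exact odd_polar_unit d F v

theorem pol_u1 (i0 : Fin d) (v : Unit ⊕ (Fin d ⊕ Fin d) → F) :
    QuadraticMap.polar (oddQF d F) (u1 F d i0) v =
      v (Sum.inr (Sum.inr i0)) + v (Sum.inr (Sum.inl i0)) := by
  unfold u1
  rw [QuadraticMap.polar_add_left, oddQF_coe, odd_polar_inl, odd_polar_inr]

theorem X_mulVec (i0 : Fin d) (v : Unit ⊕ (Fin d ⊕ Fin d) → F) :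
    ([e0 F d, u1 F d i0].map (Cfsg.reflectionMatrix ⇑(oddQF d F))).prod *ᵥ v =
      v - (2 * v (Sum.inl ())) • e0 F d -
        (v (Sum.inr (Sum.inr i0)) + v (Sum.inr (Sum.inl i0))) • u1 F d i0 := by
  simp only [List.map_cons, List.map_nil, List.prod_cons, List.prod_nil, mul_one]
  rw [← mulVec_mulVec, reflectionMatrix_mulVec, reflectionMatrix_mulVec, Q_e0, Q_u1, pol_e0,
    pol_u1]
  simp only [inv_one, one_mul, Pi.sub_apply, Pi.smul_apply, smul_eq_mul]
  have h1 : u1 F d i0 (Sum.inl ()) = 0 := by simp [u1]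
  rw [h1, mul_zero, sub_zero]
  abel

end inv2nec

/-- **[INV2-NEC]** -/
theorem pkgInv2Nec : PkgInv2Nec.{u} := by
  intro F _ _ d hd h3
  classical
  have h2 : (2 : F) ≠ 0 := two_ne_zero_of_card h3
  rw [← oddQF_coe]
  obtain ⟨Q, hQdef⟩ : ∃ Q : QuadraticForm F (Unit ⊕ (Fin d ⊕ Fin d) → F), Q = oddQF d F :=
    ⟨_, rfl⟩
  have hQ : (QuadraticMap.polarBilin Q).Nondegenerate := by
    rw [hQdef]
    exact oddQF_nondegenerate d F h2
  obtain ⟨i0⟩ : Nonempty (Fin d) := ⟨⟨0, hd⟩⟩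
  have hl : ∀ u ∈ [e0 F d, u1 F d i0], Q u ≠ 0 := by
    intro u hu
    simp only [List.mem_cons, List.not_mem_nil, or_false] at hu
    rcases hu with rfl | rfl
    · rw [hQdef, Q_e0]; exact one_ne_zero
    · rw [hQdef, Q_u1]; exact one_ne_zero
  obtain ⟨x, hxdef⟩ : ∃ x : ↥(Cfsg.isometryGroup F ⇑Q), x = prodElt Q hQ [e0 F d, u1 F d i0] hl :=
    ⟨_, rfl⟩
  have hxmem : x ∈ commutator ↥(Cfsg.isometryGroup F ⇑Q) := by
    rw [hxdef, prodElt_mem_commutator_iff h2 Q hQ]
    refine ⟨⟨1, rfl⟩, ?_⟩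
    simp only [List.map_cons, List.map_nil, List.prod_cons, List.prod_nil, mul_one]
    rw [hQdef, Q_e0, Q_u1, mul_one]
    exact ⟨1, (mul_one 1).symm⟩
  obtain ⟨X, hXdef⟩ : ∃ X : Matrix (Unit ⊕ (Fin d ⊕ Fin d)) (Unit ⊕ (Fin d ⊕ Fin d)) F,
      X = ((x : GL (Unit ⊕ (Fin d ⊕ Fin d)) F) : Matrix (Unit ⊕ (Fin d ⊕ Fin d))
        (Unit ⊕ (Fin d ⊕ Fin d)) F) := ⟨_, rfl⟩
  have hX : ∀ v : Unit ⊕ (Fin d ⊕ Fin d) → F,
      X *ᵥ v =
      v - (2 * v (Sum.inl ())) • e0 F d -
        (v (Sum.inr (Sum.inr i0)) + v (Sum.inr (Sum.inl i0))) • u1 F d i0 := by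
    intro v
    rw [hXdef, hxdef]
    have h := X_mulVec (F := F) d i0 v
    rw [← hQdef] at h
    exact h
  subst hQdef
  have hc0 : ∀ v : Unit ⊕ (Fin d ⊕ Fin d) → F,
      (X *ᵥ v) (Sum.inl ()) = - v (Sum.inl ()) := by
    intro v
    rw [hX]
    simp [e0, u1]
    ring
  have hc1 : ∀ v : Unit ⊕ (Fin d ⊕ Fin d) → F,
      (X *ᵥ v) (Sum.inr (Sum.inr i0)) + (X *ᵥ v) (Sum.inr (Sum.inl i0)) =
        - (v (Sum.inr (Sum.inr i0)) + v (Sum.inr (Sum.inl i0))) := by
    intro v
    rw [hX]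
    simp [e0, u1]
  have hXX : X * X = 1 := by
    rw [Matrix.ext_iff_mulVec]
    intro v
    rw [← mulVec_mulVec, hX (_ *ᵥ v), hc0, hc1, hX v, one_mulVec]
    module
  refine ⟨(x : GL (Unit ⊕ (Fin d ⊕ Fin d)) F), ?_, ?_, ?_⟩
  · exact Subgroup.mem_map.2 ⟨x, hxmem, rfl⟩
  · haveI : Fact (Nat.Prime 2) := ⟨Nat.prime_two⟩
    apply orderOf_eq_prime
    · apply Units.ext
      rw [pow_two, Units.val_mul, ← hXdef]
      exact hXX
    · intro h1
      have h4 := hc0 (e0 F d)
      rw [hXdef, h1] at h4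
      simp [e0] at h4
      exact h2 (by linear_combination h4)
  · intro W hWd hWts hWinv
    have hmem : ∀ w ∈ W, X *ᵥ w ∈ W := by
      intro w hw
      apply hWinv
      rw [hXdef]
      exact ⟨w, hw, Matrix.toLin'_apply _ _⟩
    have hzero : ∀ w ∈ W, w (Sum.inl ()) = 0 ∧
        w (Sum.inr (Sum.inr i0)) + w (Sum.inr (Sum.inl i0)) = 0 := by
      intro w hw
      have h4 : (2 * w (Sum.inl ())) • e0 F d +
          (w (Sum.inr (Sum.inr i0)) + w (Sum.inr (Sum.inl i0))) • u1 F d i0 ∈ W := by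
        have h5 := W.sub_mem hw (hmem w hw)
        rw [hX] at h5
        have h6 : w - (w - (2 * w (Sum.inl ())) • e0 F d -
            (w (Sum.inr (Sum.inr i0)) + w (Sum.inr (Sum.inl i0))) • u1 F d i0) =
            (2 * w (Sum.inl ())) • e0 F d +
          (w (Sum.inr (Sum.inr i0)) + w (Sum.inr (Sum.inl i0))) • u1 F d i0 := by module
        rw [h6] at h5
        exact h5
      have h5 := hWts _ h4
      rw [Q_comb] at h5
      obtain ⟨h6, h7⟩ := sq_add_sq_eq_zero h3 h5
      exact ⟨(mul_eq_zero.1 h6).resolve_left h2, h7⟩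
    obtain ⟨B, hB⟩ : ∃ B : LinearMap.BilinForm F (Unit ⊕ (Fin d ⊕ Fin d) → F),
        B = QuadraticMap.polarBilin (oddQF d F) := ⟨_, rfl⟩
    have hBapp : ∀ u v, B u v = QuadraticMap.polar (oddQF d F) u v := by
      intro u v
      rw [hB, QuadraticMap.polarBilin_apply_apply]
    have hWP : W ≤ B.orthogonal W := by
      intro w hw
      rw [LinearMap.BilinForm.mem_orthogonal_iff]
      intro u hu
      rw [hBapp]
      unfold QuadraticMap.polar
      rw [hWts u hu, hWts w hw, hWts _ (W.add_mem hu hw)]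
      ring
    have he0P : e0 F d ∈ B.orthogonal W := by
      rw [LinearMap.BilinForm.mem_orthogonal_iff]
      intro u hu
      rw [hBapp, QuadraticMap.polar_comm, pol_e0, (hzero u hu).1, mul_zero]
    have hu1P : u1 F d i0 ∈ B.orthogonal W := by
      rw [LinearMap.BilinForm.mem_orthogonal_iff]
      intro u hu
      rw [hBapp, QuadraticMap.polar_comm, pol_u1, (hzero u hu).2]
    have he0W : e0 F d ∉ W := by
      intro h
      have h4 := hWts _ h
      rw [Q_e0] at h4
      exact one_ne_zero h4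
    have hu1W : u1 F d i0 ∉ W ⊔ Submodule.span F {e0 F d} := by
      intro h
      obtain ⟨w, hw, z, hz, hwz⟩ := Submodule.mem_sup.1 h
      obtain ⟨a, rfl⟩ := Submodule.mem_span_singleton.1 hz
      have h4 : w = (-a) • e0 F d + (1 : F) • u1 F d i0 := by
        rw [← hwz]
        module
      have h5 := hWts w hw
      rw [h4, Q_comb] at h5
      exact one_ne_zero (sq_add_sq_eq_zero h3 h5).2
    have hlt1 : W < W ⊔ Submodule.span F {e0 F d} := by
      refine lt_of_le_of_ne le_sup_left (fun h => he0W ?_)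
      rw [h]
      exact Submodule.mem_sup_right (Submodule.mem_span_singleton_self _)
    have hlt2 : W ⊔ Submodule.span F {e0 F d} <
        W ⊔ Submodule.span F {e0 F d} ⊔ Submodule.span F {u1 F d i0} := by
      refine lt_of_le_of_ne le_sup_left (fun h => hu1W ?_)
      rw [h]
      exact Submodule.mem_sup_right (Submodule.mem_span_singleton_self _)
    have hle : W ⊔ Submodule.span F {e0 F d} ⊔ Submodule.span F {u1 F d i0} ≤ B.orthogonal W := by
      refine sup_le (sup_le hWP ?_) ?_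
      · rw [Submodule.span_singleton_le_iff_mem]
        exact he0P
      · rw [Submodule.span_singleton_le_iff_mem]
        exact hu1P
    have h5 := Submodule.finrank_lt_finrank_of_lt hlt1
    have h6 := Submodule.finrank_lt_finrank_of_lt hlt2
    have h7 := Submodule.finrank_mono hle
    have h8 : finrank F (B.orthogonal W) = finrank F (Unit ⊕ (Fin d ⊕ Fin d) → F) - finrank F W := by
      rw [hB]
      exact LinearMap.BilinForm.finrank_orthogonal (oddQF_nondegenerate d F h2) W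
    have h9 : finrank F (Unit ⊕ (Fin d ⊕ Fin d) → F) = 1 + (d + d) := by
      simp
    omega

end Cfsg.Agent.Lib.Helper37.OTS
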